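import Cfsg.Agent.H866.VanON
import Cfsg.Agent.H419.Row

/-!
# O'Nan: `EvMix` (helper866)
-/

set_option autoImplicit false

namespace Cfsg.Agent.H866.ONMix

open Cfsg

universe u

theorem evMix {S : Type u} [Group S] (h : Cfsg.Spor.IsoON S) : Cfsg.Agent.H419.Row.EvMix S := by
  obtain ⟨e⟩ := h
  obtain ⟨x, hx, hxo⟩ := VanON.vz_ten
  refine Cfsg.Agent.H419.Row.EvMix.mulEquiv e.symm ?_
  exact Cfsg.Agent.H419.Row.evMix_of_order hx (p := 5) (by norm_num) (by norm_num) (by rw [hxo])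

end Cfsg.Agent.H866.ONMix
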