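import Cfsg.Agent.S0352
import Cfsg.Agent.S0354
import Cfsg.Agent.S0363
import Cfsg.Agent.S1557
import Cfsg.Agent.SporadicStructure.Sextet

/-!
# The octad graph: adjacency, common neighbours, distances
-/

set_option autoImplicit false

namespace Cfsg.Agent.H866.OctadGraph

open Cfsg Finset
open Cfsg.Agent.SporadicStructure.Sextet

theorem card24 : Fintype.card GolayPt = 24 := by
  rw [Fintype.card_option, ZMod.card]

/-- Two distinct octads meet in 0, 2 or 4 points. -/
theorem inter_cases {o o' : Finset GolayPt} (ho : o ∈ octads) (ho' : o' ∈ octads) (hne : o ≠ o') :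
    (o ∩ o').card = 0 ∨ (o ∩ o').card = 2 ∨ (o ∩ o').card = 4 :=
  Cfsg.Agent.S0352.result card24 Cfsg.Agent.S0363.result ho ho' hne

theorem adj_iff {o o' : Finset GolayPt} (ho : o ∈ octads) (ho' : o' ∈ octads) :
    (blockGraph octads).Adj ⟨o, ho⟩ ⟨o', ho'⟩ ↔ Disjoint o o' := by
  unfold blockGraph
  rw [SimpleGraph.fromRel_adj]
  constructor
  · rintro ⟨-, h | h⟩
    · exact h
    · exact h.symm
  · intro h
    refine ⟨?_, Or.inl h⟩
    intro e
    have e' : o = o' := congrArg Subtype.val e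
    subst e'
    rw [disjoint_self_iff_empty] at h
    have h8 : o.card = 8 := ho.2
    rw [h] at h8
    exact absurd h8 (by decide)

theorem disjoint_iff_card {o o' : Finset GolayPt} : Disjoint o o' ↔ (o ∩ o').card = 0 := by
  rw [disjoint_iff_inter_eq_empty, card_eq_zero]

/-- Some octad is disjoint from a given one. -/
theorem exists_disjoint {o : Finset GolayPt} (ho : o ∈ octads) : ∃ c ∈ octads, Disjoint o c := by
  have h := Cfsg.Agent.S0354.result card24 Cfsg.Agent.S0363.result ho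
  have h1 : {c : Finset GolayPt | c ∈ octads ∧ Disjoint o c}.Nonempty := by
    rw [← Set.ncard_pos (Set.toFinite _), h]
    norm_num
  obtain ⟨c, hc⟩ := h1
  exact ⟨c, hc.1, hc.2⟩

/-- Two octads meeting in four points are both disjoint from a third one. -/
theorem exists_common {o o' : Finset GolayPt} (ho : o ∈ octads) (ho' : o' ∈ octads)
    (h4 : (o ∩ o').card = 4) : ∃ c ∈ octads, Disjoint o c ∧ Disjoint o' c := by
  classical
  have hSt := Cfsg.Agent.S0363.result
  set t := o ∩ o' with ht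
  have hto : t ⊆ o := inter_subset_left
  have hto' : t ⊆ o' := inter_subset_right
  have h1 : o \ t ∈ sextetOf t := mem_sextetOf.2 (Or.inr ⟨disjoint_sdiff, by
    rw [union_sdiff_of_subset hto]; exact ho⟩)
  have h2 : o' \ t ∈ sextetOf t := mem_sextetOf.2 (Or.inr ⟨disjoint_sdiff, by
    rw [union_sdiff_of_subset hto']; exact ho'⟩)
  have h6 := card_sextetOf hSt h4
  have h3 : 1 < (sextetOf t \ {t, o \ t, o' \ t}).card := by
    have h4 := le_card_sdiff {t, o \ t, o' \ t} (sextetOf t)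
    have h5 : ({t, o \ t, o' \ t} : Finset (Finset GolayPt)).card ≤ 3 := card_le_three
    omega
  obtain ⟨u, hu, v, hv, huv⟩ := one_lt_card.1 h3
  rw [mem_sdiff, mem_insert, mem_insert, mem_singleton, not_or, not_or] at hu hv
  obtain ⟨hu, hu1, hu2, hu3⟩ := hu
  obtain ⟨hv, hv1, hv2, hv3⟩ := hv
  have hp := pair_sextetOf hSt h4 hu hv huv
  have a1 := (pair_sextetOf hSt h4 (self_mem_sextetOf t) hu (Ne.symm hu1)).1
  have a2 := (pair_sextetOf hSt h4 (self_mem_sextetOf t) hv (Ne.symm hv1)).1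
  have a3 := (pair_sextetOf hSt h4 h1 hu (Ne.symm hu2)).1
  have a4 := (pair_sextetOf hSt h4 h1 hv (Ne.symm hv2)).1
  have a5 := (pair_sextetOf hSt h4 h2 hu (Ne.symm hu3)).1
  have a6 := (pair_sextetOf hSt h4 h2 hv (Ne.symm hv3)).1
  refine ⟨u ∪ v, hp.2, ?_, ?_⟩
  · rw [← union_sdiff_of_subset hto, disjoint_union_left, disjoint_union_right, disjoint_union_right]
    exact ⟨⟨a1, a2⟩, a3, a4⟩
  · rw [← union_sdiff_of_subset hto', disjoint_union_left, disjoint_union_right, disjoint_union_right]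
    exact ⟨⟨a1, a2⟩, a5, a6⟩

/-- Splitting an octad along a trio. -/
theorem split {o c o' : Finset GolayPt} (ho : o ∈ octads) (hc : c ∈ octads) (ho' : o' ∈ octads)
    (hd : Disjoint o c) :
    (o ∩ o').card + (c ∩ o').card + ((o ∪ c)ᶜ ∩ o').card = 8 := by
  have h8 : o'.card = 8 := ho'.2
  have h1 : ((o ∪ c) ∩ o').card = (o ∩ o').card + (c ∩ o').card := by
    rw [union_inter_distrib_right, card_union_of_disjoint]
    exact hd.mono inter_subset_left inter_subset_left
  rw [← h1, inter_comm (o ∪ c) o', inter_comm (o ∪ c)ᶜ o', ← sdiff_eq_inter_compl]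
  rw [add_comm, card_sdiff_add_card_inter, h8]

theorem no_common {o o' c : Finset GolayPt} (ho : o ∈ octads) (ho' : o' ∈ octads)
    (hc : c ∈ octads) (h2 : (o ∩ o').card = 2) (h1 : Disjoint o c) (h1' : Disjoint o' c) : False := by
  have h3 := split ho hc ho' h1
  have h4 : (c ∩ o').card = 0 := disjoint_iff_card.1 h1'.symm
  have h5 := Cfsg.Agent.S1557.third_octad o c ho hc h1
  by_cases he : (o ∪ c)ᶜ = o'
  · have : (o ∩ o').card = 0 := by
      rw [← disjoint_iff_card, ← he]
      exact disjoint_compl_right.mono_left subset_union_left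
    omega
  · have := inter_cases h5 ho' he
    omega

theorem exists_path_three {o o' : Finset GolayPt} (ho : o ∈ octads) (ho' : o' ∈ octads)
    (h2 : (o ∩ o').card = 2) : ∃ c ∈ octads, Disjoint o c ∧ (c ∩ o').card = 4 := by
  obtain ⟨c, hc, hoc⟩ := exists_disjoint ho
  have h5 := Cfsg.Agent.S1557.third_octad o c ho hc hoc
  have h3 := split ho hc ho' hoc
  have hdis : Disjoint o (o ∪ c)ᶜ := disjoint_compl_right.mono_left subset_union_left
  have n1 : c ≠ o' := by
    rintro rfl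
    rw [disjoint_iff_card.1 hoc] at h2
    exact absurd h2 (by decide)
  have n2 : (o ∪ c)ᶜ ≠ o' := by
    rintro rfl
    rw [disjoint_iff_card.1 hdis] at h2
    exact absurd h2 (by decide)
  have i1 := inter_cases hc ho' n1
  have i2 := inter_cases h5 ho' n2
  have h6 : (c ∩ o').card = 4 ∨ ((o ∪ c)ᶜ ∩ o').card = 4 := by omega
  rcases h6 with h6 | h6
  · exact ⟨c, hc, hoc, h6⟩
  · exact ⟨_, h5, hdis, h6⟩

/-! ### Distances -/

theorem dist_zero_case {o o' : Finset GolayPt} (ho : o ∈ octads) (ho' : o' ∈ octads)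
    (h : (o ∩ o').card = 0) : (blockGraph octads).Reachable ⟨o, ho⟩ ⟨o', ho'⟩ ∧
      (blockGraph octads).dist ⟨o, ho⟩ ⟨o', ho'⟩ = 1 := by
  have ha := (adj_iff ho ho').2 (disjoint_iff_card.2 h)
  exact ⟨ha.reachable, SimpleGraph.dist_eq_one_iff_adj.2 ha⟩

theorem dist_ne_one {o o' : Finset GolayPt} (ho : o ∈ octads) (ho' : o' ∈ octads)
    (h : (o ∩ o').card ≠ 0) : (blockGraph octads).dist ⟨o, ho⟩ ⟨o', ho'⟩ ≠ 1 := by
  intro h1
  rw [SimpleGraph.dist_eq_one_iff_adj, adj_iff, disjoint_iff_card] at h1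
  exact h h1

theorem dist_ne_zero {o o' : Finset GolayPt} (ho : o ∈ octads) (ho' : o' ∈ octads)
    (hne : o ≠ o') (hr : (blockGraph octads).Reachable ⟨o, ho⟩ ⟨o', ho'⟩) :
    (blockGraph octads).dist ⟨o, ho⟩ ⟨o', ho'⟩ ≠ 0 := by
  intro h1
  rw [hr.dist_eq_zero_iff] at h1
  exact hne (congrArg Subtype.val h1)

theorem dist_four_case {o o' : Finset GolayPt} (ho : o ∈ octads) (ho' : o' ∈ octads)
    (h : (o ∩ o').card = 4) : (blockGraph octads).Reachable ⟨o, ho⟩ ⟨o', ho'⟩ ∧
      (blockGraph octads).dist ⟨o, ho⟩ ⟨o', ho'⟩ = 2 := by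
  obtain ⟨c, hc, h1, h2⟩ := exists_common ho ho' h
  have a1 : (blockGraph octads).Adj ⟨o, ho⟩ ⟨c, hc⟩ := (adj_iff ho hc).2 h1
  have a2 : (blockGraph octads).Adj ⟨c, hc⟩ ⟨o', ho'⟩ := (adj_iff hc ho').2 h2.symm
  have hr := a1.reachable.trans a2.reachable
  have hne : o ≠ o' := by
    rintro rfl
    rw [inter_self] at h
    have : o.card = 8 := ho.2
    omega
  refine ⟨hr, ?_⟩
  have hle : (blockGraph octads).dist ⟨o, ho⟩ ⟨o', ho'⟩ ≤ 2 :=
    SimpleGraph.dist_le (SimpleGraph.Walk.cons a1 (SimpleGraph.Walk.cons a2 SimpleGraph.Walk.nil))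
  have h0 := dist_ne_zero ho ho' hne hr
  have h1 := dist_ne_one ho ho' (by omega)
  omega

theorem dist_two_case {o o' : Finset GolayPt} (ho : o ∈ octads) (ho' : o' ∈ octads)
    (h : (o ∩ o').card = 2) : (blockGraph octads).Reachable ⟨o, ho⟩ ⟨o', ho'⟩ ∧
      (blockGraph octads).dist ⟨o, ho⟩ ⟨o', ho'⟩ = 3 := by
  obtain ⟨c, hc, h1, h2⟩ := exists_path_three ho ho' h
  obtain ⟨d, hd, h3, h4⟩ := exists_common hc ho' h2
  have a1 : (blockGraph octads).Adj ⟨o, ho⟩ ⟨c, hc⟩ := (adj_iff ho hc).2 h1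
  have a2 : (blockGraph octads).Adj ⟨c, hc⟩ ⟨d, hd⟩ := (adj_iff hc hd).2 h3
  have a3 : (blockGraph octads).Adj ⟨d, hd⟩ ⟨o', ho'⟩ := (adj_iff hd ho').2 h4.symm
  have hr := (a1.reachable.trans a2.reachable).trans a3.reachable
  have hne : o ≠ o' := by
    rintro rfl
    rw [inter_self] at h
    have : o.card = 8 := ho.2
    omega
  refine ⟨hr, ?_⟩
  have hle : (blockGraph octads).dist ⟨o, ho⟩ ⟨o', ho'⟩ ≤ 3 :=
    SimpleGraph.dist_le (SimpleGraph.Walk.cons a1 (SimpleGraph.Walk.cons a2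
      (SimpleGraph.Walk.cons a3 SimpleGraph.Walk.nil)))
  have h0 := dist_ne_zero ho ho' hne hr
  have h1' := dist_ne_one ho ho' (by omega)
  have h2' : (blockGraph octads).dist ⟨o, ho⟩ ⟨o', ho'⟩ ≠ 2 := by
    intro h5
    obtain ⟨p, hp⟩ := hr.exists_walk_length_eq_dist
    rw [h5] at hp
    cases p with
    | nil => exact absurd hp (by simp)
    | cons b1 q =>
      cases q with
      | nil => exact absurd hp (by simp)
      | cons b2 r =>
        cases r with
        | nil =>
          rename_i w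
          obtain ⟨w, hw⟩ := w
          exact no_common ho ho' hw h ((adj_iff ho hw).1 b1) ((adj_iff hw ho').1 b2).symm
        | cons b3 s =>
          simp only [SimpleGraph.Walk.length_cons] at hp
          omega
  omega

theorem connected {o : Finset GolayPt} (ho : o ∈ octads) : (blockGraph octads).Connected := by
  rw [SimpleGraph.connected_iff]
  refine ⟨?_, ⟨⟨o, ho⟩⟩⟩
  rintro ⟨a, ha⟩ ⟨b, hb⟩
  by_cases hab : a = b
  · subst hab
    exact SimpleGraph.Reachable.refl _
  · rcases inter_cases ha hb hab with h | h | h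
    · exact (dist_zero_case ha hb h).1
    · exact (dist_two_case ha hb h).1
    · exact (dist_four_case ha hb h).1

end Cfsg.Agent.H866.OctadGraph
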